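import Cfsg.Agent.Mult.Slices
import Cfsg.Agent.Fi24C.Mul2D

set_option autoImplicit false
set_option Elab.async false
set_option maxRecDepth 100000
set_option linter.all false

namespace Cfsg.Agent.Fi24C
open Cfsg.Agent.CGT

open Cfsg.Agent.Mult

set_option Elab.async false
theorem u2_p : ptsOK 19 [5, 26, 198, 38, 134, 965, 6, 964, 72450, 0] = true := by decide +kernel
theorem u2_r0 : rulesD 19 m_ts u2_ds [5, 26, 198, 38, 134, 965, 6, 964, 72450, 0] (u2_D.rulesRange 0 1) = true := by decide +kernel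
theorem u2_r1 : rulesD 19 m_ts u2_ds [5, 26, 198, 38, 134, 965, 6, 964, 72450, 0] (u2_D.rulesRange 1 1) = true := by decide +kernel
theorem u2_r2 : rulesD 19 m_ts u2_ds [5, 26, 198, 38, 134, 965, 6, 964, 72450, 0] (u2_D.rulesRange 2 1) = true := by decide +kernel
theorem u2_r3 : rulesD 19 m_ts u2_ds [5, 26, 198, 38, 134, 965, 6, 964, 72450, 0] (u2_D.rulesRange 3 1) = true := by decide +kernel
theorem u2_r4 : rulesD 19 m_ts u2_ds [5, 26, 198, 38, 134, 965, 6, 964, 72450, 0] (u2_D.rulesRange 4 1) = true := by decide +kernel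

end Cfsg.Agent.Fi24C
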