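import Cfsg.Agent.Mult.Slices
import Cfsg.Agent.Fi24C.Mul2D

set_option autoImplicit false
set_option Elab.async false
set_option maxRecDepth 100000
set_option linter.all false

namespace Cfsg.Agent.Fi24C
open Cfsg.Agent.CGT

open Cfsg.Agent.Mult

set_option Elab.async false
theorem u2_r5 : rulesD 19 m_ts u2_ds [5, 26, 198, 38, 134, 965, 6, 964, 72450, 0] (u2_D.rulesRange 5 1) = true := by decide +kernel
theorem u2_r6 : rulesD 19 m_ts u2_ds [5, 26, 198, 38, 134, 965, 6, 964, 72450, 0] (u2_D.rulesRange 6 1) = true := by decide +kernel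
theorem u2_r7 : rulesD 19 m_ts u2_ds [5, 26, 198, 38, 134, 965, 6, 964, 72450, 0] (u2_D.rulesRange 7 1) = true := by decide +kernel
theorem u2_r8 : rulesD 19 m_ts u2_ds [5, 26, 198, 38, 134, 965, 6, 964, 72450, 0] (u2_D.rulesRange 8 1) = true := by decide +kernel
theorem u2_r9 : rulesD 19 m_ts u2_ds [5, 26, 198, 38, 134, 965, 6, 964, 72450, 0] (u2_D.rulesRange 9 1) = true := by decide +kernel
theorem u2_r10 : rulesD 19 m_ts u2_ds [5, 26, 198, 38, 134, 965, 6, 964, 72450, 0] (u2_D.rulesRange 10 2) = true := by decide +kernel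

end Cfsg.Agent.Fi24C
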