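import Cfsg.Agent.Mult.Slices
import Cfsg.Agent.Fi24C.Mul2D

set_option autoImplicit false
set_option Elab.async false
set_option maxRecDepth 100000
set_option linter.all false

namespace Cfsg.Agent.Fi24C
open Cfsg.Agent.CGT

open Cfsg.Agent.Mult

set_option Elab.async false
theorem u2_r11 : rulesD 19 m_ts u2_ds [5, 26, 198, 38, 134, 965, 6, 964, 72450, 0] (u2_D.rulesRange 12 3) = true := by decide +kernel
theorem u2_r12 : rulesD 19 m_ts u2_ds [5, 26, 198, 38, 134, 965, 6, 964, 72450, 0] (u2_D.rulesRange 15 6) = true := by decide +kernel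
theorem u2_f0 : rulesD 19 m_ts u2_ds [5, 26, 198, 38, 134, 965, 6, 964, 72450, 0] (takeL 8 (dropL 0 u2_D.fusRules)) = true := by decide +kernel
theorem u2_f1 : rulesD 19 m_ts u2_ds [5, 26, 198, 38, 134, 965, 6, 964, 72450, 0] (takeL 11 (dropL 8 u2_D.fusRules)) = true := by decide +kernel
theorem u2_f2 : rulesD 19 m_ts u2_ds [5, 26, 198, 38, 134, 965, 6, 964, 72450, 0] (takeL 9 (dropL 19 u2_D.fusRules)) = true := by decide +kernel
theorem u2_f3 : rulesD 19 m_ts u2_ds [5, 26, 198, 38, 134, 965, 6, 964, 72450, 0] (takeL 12 (dropL 28 u2_D.fusRules)) = true := by decide +kernel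

end Cfsg.Agent.Fi24C
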