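import Cfsg.Agent.Mult.Slices
import Cfsg.Agent.Fi24C.Mul2D

set_option autoImplicit false
set_option Elab.async false
set_option maxRecDepth 100000
set_option linter.all false

namespace Cfsg.Agent.Fi24C
open Cfsg.Agent.CGT

open Cfsg.Agent.Mult

set_option Elab.async false
theorem u2_t2 : u2_D.vecsK (u2_D.M u2_c) u2_c.F [.assoc 0x100 0x100 4, .assoc 0x100 0x100 0x10, .assoc 0x100 4 1, .assoc 0x100 0x100 0x40, .assoc 0x100 0x10 4, .fus 21 [9, 5] [5, 9, 11], .fus 21 [8, 4] [4, 8, 10, 11], .fus 21 [5, 5] [], .fus 21 [5, 2] [2, 5, 10, 11], .fus 21 [6, 3] [3, 6, 11], .fus 21 [4, 3] [3, 4, 7, 10, 11], .fus 21 [6, 6] [11], .fus 21 [5, 1] [1, 5], .fus 21 [2, 2] [10, 11]] (fun l => beqL l u2_v2) = true := by decide +kernel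
theorem u2_t3 : u2_D.vecsK (u2_D.M u2_c) u2_c.F [.fus 21 [4, 0] [0, 4, 7], .fus 22 [16, 16] [21], .fus 22 [17, 17] [20], .fus 22 [19, 13] [13, 19, 20, 21], .fus 22 [16, 12] [12, 16, 18, 19], .fus 22 [15, 15] [], .fus 22 [15, 14] [14, 15, 18, 19, 21], .fus 23 [31, 31] [39], .fus 23 [34, 23] [23, 34, 36], .fus 23 [34, 26] [26, 34, 38, 39], .fus 23 [31, 22] [22, 31, 34, 39], .fus 23 [27, 27] [], .fus 23 [31, 26] [26, 31, 36, 37, 39], .fus 23 [31, 23] [23, 31, 35], .fus 23 [30, 30] [38], .fus 23 [29, 22] [22, 29, 31, 32, 37, 38], .fus 23 [26, 26] [32], .fus 23 [29, 23] [23, 29, 32, 35, 37, 39], .fus 23 [27, 26] [26, 27, 32, 33, 36, 37, 39], .fus 23 [24, 24] [29, 32, 33, 35, 39]] (fun l => beqL l u2_v3) = true := by decide +kernel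
theorem u2_t4 : u2_D.vecsK (u2_D.M u2_c) u2_c.F [.fus 23 [26, 23] [23, 26, 28, 29, 31, 34], .fus 23 [25, 23] [23, 25, 28], .fus 24 [52, 44] [44, 52, 55], .fus 24 [41, 41] [], .fus 24 [51, 41] [41, 51, 53], .fus 24 [47, 47] [55], .fus 24 [49, 42] [42, 49, 51, 52, 54, 55], .fus 24 [43, 41] [41, 43, 46, 47, 48, 49, 50, 53, 54, 55]] (fun l => beqL l u2_v4) = true := by decide +kernel
theorem u2_t5 : u2_D.vecsK (u2_D.M u2_c) u2_c.F [.fus 24 [45, 40] [40, 45, 46, 47, 48, 49, 50, 51, 52, 55]] (fun l => beqL l u2_v5) = true := by decide +kernel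
theorem u2_l : u2_D.linB u2_c (u2_v0 ++ (u2_v1 ++ (u2_v2 ++ (u2_v3 ++ (u2_v4 ++ (u2_v5)))))) = true := by decide +kernel

end Cfsg.Agent.Fi24C
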