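import Cfsg.Agent.Mult.Slices
import Cfsg.Agent.Fi24C.Mul3D

set_option autoImplicit false
set_option Elab.async false
set_option maxRecDepth 100000
set_option linter.all false

namespace Cfsg.Agent.Fi24C
open Cfsg.Agent.CGT

open Cfsg.Agent.Mult

set_option Elab.async false
theorem u3_r5 : rulesD 19 m_ts u3_ds [5, 26, 198, 38, 134, 965, 6, 964, 72450, 0] (u3_D.rulesRange 5 2) = true := by decide +kernel
theorem u3_r6 : rulesD 19 m_ts u3_ds [5, 26, 198, 38, 134, 965, 6, 964, 72450, 0] (u3_D.rulesRange 7 3) = true := by decide +kernel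
theorem u3_r7 : rulesD 19 m_ts u3_ds [5, 26, 198, 38, 134, 965, 6, 964, 72450, 0] (u3_D.rulesRange 10 6) = true := by decide +kernel
theorem u3_f0 : rulesD 19 m_ts u3_ds [5, 26, 198, 38, 134, 965, 6, 964, 72450, 0] (takeL 7 (dropL 0 u3_D.fusRules)) = true := by decide +kernel
theorem u3_f1 : rulesD 19 m_ts u3_ds [5, 26, 198, 38, 134, 965, 6, 964, 72450, 0] (takeL 8 (dropL 7 u3_D.fusRules)) = true := by decide +kernel
theorem u3_f2 : rulesD 19 m_ts u3_ds [5, 26, 198, 38, 134, 965, 6, 964, 72450, 0] (takeL 10 (dropL 15 u3_D.fusRules)) = true := by decide +kernel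

end Cfsg.Agent.Fi24C
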