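import Cfsg.Agent.Mult.Slices
import Cfsg.Agent.Fi24C.Mul3D

set_option autoImplicit false
set_option Elab.async false
set_option maxRecDepth 100000
set_option linter.all false

namespace Cfsg.Agent.Fi24C
open Cfsg.Agent.CGT

open Cfsg.Agent.Mult

set_option Elab.async false
theorem u3_t2 : u3_D.vecsK (u3_D.M u3_c) u3_c.F [.fus 17 [15, 14] [14, 15, 19], .fus 17 [13, 13, 13] [], .fus 17 [13, 12] [12, 13, 17], .fus 17 [12, 11] [11, 12, 15], .fus 17 [16, 14] [14, 16, 20]] (fun l => beqL l u3_v2) = true := by decide +kernel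
theorem u3_t3 : u3_D.vecsK (u3_D.M u3_c) u3_c.F [.fus 17 [14, 11] [11, 14, 16]] (fun l => beqL l u3_v3) = true := by decide +kernel
theorem u3_t4 : u3_D.vecsK (u3_D.M u3_c) u3_c.F [.fus 17 [14, 12] [12, 14, 15, 15, 16, 17, 17, 18, 19, 21, 22, 22, 23, 23, 24, 25]] (fun l => beqL l u3_v4) = true := by decide +kernel
theorem u3_t5 : u3_D.vecsK (u3_D.M u3_c) u3_c.F [.fus 17 [14, 14, 14] [20, 20, 24, 24], .fus 18 [38, 27] [27, 38, 39], .fus 18 [35, 34] [34, 35, 37, 37], .fus 18 [34, 33] [33, 34, 36, 39, 39]] (fun l => beqL l u3_v5) = true := by decide +kernel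
theorem u3_t6 : u3_D.vecsK (u3_D.M u3_c) u3_c.F [.fus 18 [31, 28] [28, 31], .fus 18 [31, 26] [26, 31, 32, 32], .fus 18 [30, 29] [29, 30, 33], .fus 18 [29, 28] [28, 29, 32, 33, 33, 36, 37, 37], .fus 18 [27, 27, 27] [32]] (fun l => beqL l u3_v6) = true := by decide +kernel
theorem u3_l : u3_D.linB u3_c (u3_v0 ++ (u3_v1 ++ (u3_v2 ++ (u3_v3 ++ (u3_v4 ++ (u3_v5 ++ (u3_v6))))))) = true := by decide +kernel

end Cfsg.Agent.Fi24C
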