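import Cfsg.Agent.Mult.Slices
import Cfsg.Agent.Fi24C.Mul3T0
import Cfsg.Agent.Fi24C.Mul3T1
import Cfsg.Agent.Fi24C.Mul3T2
import Cfsg.Agent.Fi24C.Mul3T3

set_option autoImplicit false
set_option Elab.async false
set_option maxRecDepth 100000
set_option linter.all false

namespace Cfsg.Agent.Fi24C
open Cfsg.Agent.CGT

open Cfsg.Agent.Mult

theorem u3_pb {G : Type*} [Group G] [Finite G] {φ : G →* Equiv.Perm ℕ} {γ : ℕ → G}
    (M : Model φ γ 19 m_ns m_ts) (hB : IsBase φ ⊤ [5, 26, 198, 38, 134, 965, 6, 964, 72450, 0]) (hN : Nat.card G = 1255205709190661721292800) : PBound G 3 1 :=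
  pbound_parts' (φ := φ) (k := 19) hN (by decide +kernel) (by decide +kernel)
    (PC.rules_of_range ((((((((PC.rangeOK_of (a := 0) (m := 1) (rulesD_sound M hB u3_p u3_r0)).trans (PC.rangeOK_of (a := 1) (m := 1) (rulesD_sound M hB u3_p u3_r1))).trans (PC.rangeOK_of (a := 2) (m := 1) (rulesD_sound M hB u3_p u3_r2))).trans (PC.rangeOK_of (a := 3) (m := 1) (rulesD_sound M hB u3_p u3_r3))).trans (PC.rangeOK_of (a := 4) (m := 1) (rulesD_sound M hB u3_p u3_r4))).trans (PC.rangeOK_of (a := 5) (m := 2) (rulesD_sound M hB u3_p u3_r5))).trans (PC.rangeOK_of (a := 7) (m := 3) (rulesD_sound M hB u3_p u3_r6))).trans (PC.rangeOK_of (a := 10) (m := 6) (rulesD_sound M hB u3_p u3_r7))) (forall_dropL (a := 0) (m := 7) (rulesD_sound M hB u3_p u3_f0) (forall_dropL (a := 7) (m := 8) (rulesD_sound M hB u3_p u3_f1) (forall_dropL (a := 15) (m := 10) (rulesD_sound M hB u3_p u3_f2) (forall_dropL (a := 25) (m := 8) (rulesD_sound M hB u3_p u3_f3) (forall_dropL (a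 := 33) (m := 7) (rulesD_sound M hB u3_p u3_f4) (forall_dropL_end (l := u3_D.fusRules) (a := 40) (by decide +kernel))))))))
    (sylP_sound M u3_o) u3_ok
    ((PC.chunk_of _ u3_t0).append ((PC.chunk_of _ u3_t1).append ((PC.chunk_of _ u3_t2).append ((PC.chunk_of _ u3_t3).append ((PC.chunk_of _ u3_t4).append ((PC.chunk_of _ u3_t5).append (PC.chunk_of _ u3_t6)))))))
    (PC.lin_of_linB u3_l)

end Cfsg.Agent.Fi24C
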