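import Cfsg.Agent.Mult.Slices
import Cfsg.Agent.Fi24C.Mul7D

set_option autoImplicit false
set_option Elab.async false
set_option maxRecDepth 100000
set_option linter.all false

namespace Cfsg.Agent.Fi24C
open Cfsg.Agent.CGT

open Cfsg.Agent.Mult

set_option Elab.async false
theorem u7_all : allB u7_D u7_c [.assoc 0x30 8 1, .fus 3 [2, 1] [1, 2], .fus 3 [2, 0] [0, 2], .fus 3 [1, 1, 1, 1, 1, 1, 1] [], .fus 3 [0, 0, 0, 0, 0, 0, 0] []] 19 m_ts u7_ds [5, 26, 198, 38, 134, 965, 6, 964, 72450, 0] [(1617, [0x40, 8]), (0, [0x109])] = true := by decide +kernel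

end Cfsg.Agent.Fi24C
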