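import Cfsg.Agent.Mult.Slices
import Cfsg.Agent.Fi24C.Mulc3D

set_option autoImplicit false
set_option Elab.async false
set_option maxRecDepth 100000
set_option linter.all false

namespace Cfsg.Agent.Fi24C
open Cfsg.Agent.CGT

open Cfsg.Agent.Mult

set_option Elab.async false
theorem mulc3_m0 : monB 3 t_ns mulc3_C mulc3_U RA mulc3_a 0 18 = true := by decide +kernel
theorem mulc3_m1 : monB 3 t_ns mulc3_C mulc3_U RA mulc3_a 18 12 = true := by decide +kernel
theorem mulc3_m2 : monB 3 t_ns mulc3_C mulc3_U RA mulc3_a 30 12 = true := by decide +kernel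

end Cfsg.Agent.Fi24C
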