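import Cfsg.Agent.Mult.Slices
import Cfsg.Agent.Fi24C.Mulc3D

set_option autoImplicit false
set_option Elab.async false
set_option maxRecDepth 100000
set_option linter.all false

namespace Cfsg.Agent.Fi24C
open Cfsg.Agent.CGT

open Cfsg.Agent.Mult

set_option Elab.async false
theorem mulc3_m6 : monB 3 t_ns mulc3_C mulc3_U RA mulc3_a 75 3 = true := by decide +kernel
theorem mulc3_m7 : labK 3 t_ns mulc3_C [0, 44, 14, 36, 10, 32, 6, 28, 20, 38, 12, 34, 8, 30, 4, 44, 14, 36, 10, 32, 6, 28, 20, 38, 12, 34, 8, 30, 4, 44, 14, 36, 10, 32, 6, 28, 20, 38, 12, 34, 8, 30, 4, 44, 14, 36, 10, 32, 6, 28, 20] (fun a b => Nat.beq a mulc3_s7 && Nat.beq b mulc3_t7) 0 0 = true := by decide +kernel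
theorem mulc3_m8 : labK 3 t_ns mulc3_C [38, 12, 34, 8, 30, 4, 44, 14, 36, 10, 32, 6, 28] (fun a b => Nat.beq a mulc3_s8 && Nat.beq b mulc3_t8) mulc3_s7 mulc3_t7 = true := by decide +kernel

end Cfsg.Agent.Fi24C
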