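import Cfsg.Agent.Mult.Slices
import Cfsg.Agent.Fi24C.Mulc3D

set_option autoImplicit false
set_option Elab.async false
set_option maxRecDepth 100000
set_option linter.all false

namespace Cfsg.Agent.Fi24C
open Cfsg.Agent.CGT

open Cfsg.Agent.Mult

set_option Elab.async false
theorem mulc3_m9 : labK 3 t_ns mulc3_C [10, 32, 6, 28, 2, 24, 10, 36, 14, 40, 18, 34, 20, 46, 10, 32, 6, 28, 2, 24, 10, 36, 14, 40, 18, 34, 20, 46, 10, 32, 6, 28, 2, 24, 10, 36, 14, 40, 18, 34, 20, 46, 10, 32, 6, 28, 2, 24, 10, 36, 14] (fun a b => Nat.beq a mulc3_s9 && Nat.beq b mulc3_t9) 0 0 = true := by decide +kernel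
theorem mulc3_m10 : labK 3 t_ns mulc3_C [40, 18, 34, 20, 46, 10, 32, 6, 28, 2, 24, 10, 36, 14, 40, 18, 34, 20, 46, 10, 32, 6, 28, 2, 24, 10, 36, 14, 40, 18, 34, 20, 46, 10, 32, 6, 28, 2, 24, 10, 36, 14, 40, 18, 34, 20, 46, 10, 32, 6, 28] (fun a b => Nat.beq a mulc3_s10 && Nat.beq b mulc3_t10) mulc3_s9 mulc3_t9 = true := by decide +kernel
theorem mulc3_m11 : labK 3 t_ns mulc3_C [2, 24, 10, 36, 14, 40, 18, 34, 20, 46, 10, 32, 6, 28, 2, 24, 10, 36, 14, 40, 18, 34, 20, 46, 10, 32, 6, 28, 2, 24, 10, 36, 14, 40, 18, 34, 20, 46, 10, 32, 6, 28, 2, 24, 10, 36, 14, 40, 18, 34, 20] (fun a b => Nat.beq a mulc3_s11 && Nat.beq b mulc3_t11) mulc3_s10 mulc3_t10 = true := by decide +kernel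

end Cfsg.Agent.Fi24C
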