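import Cfsg.Agent.Mult.Slices
import Cfsg.Agent.Fi24C.Mulc3D

set_option autoImplicit false
set_option Elab.async false
set_option maxRecDepth 100000
set_option linter.all false

namespace Cfsg.Agent.Fi24C
open Cfsg.Agent.CGT

open Cfsg.Agent.Mult

set_option Elab.async false
theorem mulc3_m12 : labK 3 t_ns mulc3_C [46, 10, 32, 6, 28, 2, 24, 10, 36, 14, 40, 18, 34, 20, 46, 10, 32, 6, 28, 2, 24, 10, 36, 14, 40, 18, 34, 20, 46, 10, 32, 6, 28, 2, 24, 10, 36, 14, 40, 18, 34, 20, 46, 10, 32, 6, 28, 2, 24, 10, 36] (fun a b => Nat.beq a mulc3_s12 && Nat.beq b mulc3_t12) mulc3_s11 mulc3_t11 = true := by decide +kernel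
theorem mulc3_m13 : labK 3 t_ns mulc3_C [14, 40, 18, 34, 20, 46, 10, 32, 6, 28, 2, 24, 10, 36, 14, 40, 18, 34, 20, 46, 10, 32, 6, 28, 2, 24, 10, 36, 14, 40, 18, 34, 20, 46] (fun a b => Nat.beq a mulc3_s13 && Nat.beq b mulc3_t13) mulc3_s12 mulc3_t12 = true := by decide +kernel
theorem mulc3_i : invB t_ns mulc3_U RA mulc3_a 80 = true := by decide +kernel

end Cfsg.Agent.Fi24C
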