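import Cfsg.Agent.Mult.Slices
import Cfsg.Agent.Fi24C.Mulc3T0
import Cfsg.Agent.Fi24C.Mulc3T1
import Cfsg.Agent.Fi24C.Mulc3T2
import Cfsg.Agent.Fi24C.Mulc3T3
import Cfsg.Agent.Fi24C.Mulc3T4

set_option autoImplicit false
set_option Elab.async false
set_option maxRecDepth 100000
set_option linter.all false

namespace Cfsg.Agent.Fi24C
open Cfsg.Agent.CGT

open Cfsg.Agent.Mult

theorem t_p : Holds (lp t_ns) RA := holds_altL (m := 12) rfl (l0_p.subR (by decide +kernel)) (by decide +kernel)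
theorem mulc3_proj : Proj (yM 3 t_ns mulc3_C) (zM 3 mulc3_U) 3 RA mulc3_a :=
  have hq : 3 = 2 ∨ 3 = 3 ∨ 3 = 4 := by decide
  proj_mono hq t_v t_p (((((((((MonR.zero.step hq t_v mulc3_m0).step hq t_v mulc3_m1).step hq t_v mulc3_m2).step hq t_v mulc3_m3).step hq t_v mulc3_m4).step hq t_v mulc3_m5).step hq t_v mulc3_m6).seg hq ((Seg.nil.step hq t_v mulc3_m7).step hq t_v mulc3_m8) (by decide +kernel)).seg hq (((((Seg.nil.step hq t_v mulc3_m9).step hq t_v mulc3_m10).step hq t_v mulc3_m11).step hq t_v mulc3_m12).step hq t_v mulc3_m13) (by decide +kernel)) mulc3_i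

end Cfsg.Agent.Fi24C
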